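import Cfsg.Agent.OD.Pre
import Cfsg.Agent.H6.J4C.O0
set_option autoImplicit false
set_option maxRecDepth 100000
set_option Elab.async false
set_option linter.all false
namespace CfH6.J4C
open CfH6 CfH6.D MulAction
theorem iO0 : Rng (chkInvT (fun x => fO (Nat.succ x)) M24B.il 3 3795) 0 3795 := rng_of 0 29 83 3795 (by decide +kernel)
theorem rO0 : Rng (chkRelT (fun x => fO (Nat.succ x)) M24B.rels) 0 3795 := rng_of 0 29 83 3795 (by decide +kernel)
theorem dO0 : Rng (chkId fO) 0 3795 := rng_of 0 29 83 3795 (by decide +kernel)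
theorem sO0 : Rng (chkSl fO M24D.sa M24D.sb 29 83) 4 64 := rng_of 4 0 60 64 (by decide +kernel)
end CfH6.J4C
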